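import Cfsg.Agent.ChevSteinberg.Words

/-!
Bruhat cells in the cosets of standard parabolic subgroups.
-/

namespace Cfsg.Agent.ChevSteinberg

open Cfsg.Lie Cfsg.Agent.ChevGrp

variable {D : ChevalleyDatum} {F : Type*} [Field F] {G : Type*} [Group G] (S : Sys D F G) {len : ℕ → ℕ}

/-- `P_J` for a list `J` -/
abbrev PL (J : List ℕ) : Subgroup G := S.PJ {k | k ∈ J}

/-- `g` lies in `B n_w B` -/
def InCell (g : G) (w : List (Fin D.rank)) : Prop := ∃ b ∈ S.Bbar, ∃ b' ∈ S.Bbar, g = b * S.nW w * b'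

theorem inCell_congr (hS : Rules D F) (hR : RootTable D len) {g : G} {v w : List (Fin D.rank)}
    (h : SameAct D v w) (hg : InCell S g v) : InCell S g w := by
  obtain ⟨b, hb, b', hb', rfl⟩ := hg
  obtain ⟨k, hk, e⟩ := S.nW_congr hS hR h
  exact ⟨b * k, mul_mem hb (S.Hbar_le_Bbar hk), b', hb', by rw [e]; simp [mul_assoc]⟩

theorem inCell_unique (hS : Rules D F) (hR : RootTable D len) {g : G} {v w : List (Fin D.rank)}
    (hv : InCell S g v) (hw : InCell S g w) : SameAct D v w := by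
  obtain ⟨b, hb, b', hb', rfl⟩ := hv
  obtain ⟨c, hc, c', hc', e⟩ := hw
  refine S.act_eq_of_bruhat hS hR (mul_mem (inv_mem hc) hb) (mul_mem hc' (inv_mem hb')) (congrArg S.θ ?_)
  calc c⁻¹ * b * S.nW v = c⁻¹ * (b * S.nW v * b') * b'⁻¹ := by simp [mul_assoc]
    _ = _ := by rw [e]; simp [mul_assoc]

theorem InCell.mul_left {g b : G} {w : List (Fin D.rank)} (hb : b ∈ S.Bbar) (h : InCell S g w) :
    InCell S (b * g) w := by
  obtain ⟨c, hc, c', hc', rfl⟩ := h
  exact ⟨b * c, mul_mem hb hc, c', hc', by simp [mul_assoc]⟩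

theorem InCell.mul_right {g b : G} {w : List (Fin D.rank)} (hb : b ∈ S.Bbar) (h : InCell S g w) :
    InCell S (g * b) w := by
  obtain ⟨c, hc, c', hc', rfl⟩ := h
  exact ⟨c, hc, c' * b, mul_mem hc' hb, by simp [mul_assoc]⟩

theorem inCell_self (w : List (Fin D.rank)) : InCell S (S.nW w) w :=
  ⟨1, one_mem _, 1, one_mem _, by simp⟩

/-- The length-increasing step. -/
theorem step_pos (hS : Rules D F) (hR : RootTable D len) (i : Fin D.rank) {z : List (Fin D.rank)}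
    (hz : Reduced D (i :: z)) {b : G} (hb : b ∈ S.Bbar) : InCell S (S.nI i * b * S.nW z) (i :: z) := by
  obtain ⟨-, hq⟩ := hR.reduced_of_cons hz
  obtain ⟨u, hu, h, hh, rfl⟩ := (S.mem_Bbar hS hR).1 hb
  obtain ⟨a, ha, t, rfl⟩ := S.x_simple_split hR i hu
  obtain ⟨c, -, hc⟩ := (S.conjP_nW hS hR z).inv hR
  have hp := hR.simple_lt i i.2
  have hA : S.nI i * a * (S.nI i)⁻¹ ∈ S.Bbar :=
    S.Ubar_le_Bbar (S.US_mono Set.sdiff_subset (S.nI_conj_Up hS hR i ha))
  have hx : (S.nW z)⁻¹ * S.x (D.simple i) t * S.nW z ∈ S.Bbar := by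
    have e := hc (D.simple i) hp t
    rw [inv_inv] at e
    rw [e]
    exact S.Ubar_le_Bbar (S.x_mem_US hq _)
  have hh' : (S.nW z)⁻¹ * h * S.nW z ∈ S.Bbar := by
    obtain ⟨k, hk, e⟩ : ∃ k ∈ S.Hbar, S.nW z.reverse = k * (S.nW z)⁻¹ :=
      ⟨S.nW z.reverse * S.nW z, by simpa using S.nW_reverse_mem hS hR z.reverse, by simp [mul_assoc]⟩
    have h2 := S.nW_conj_Hbar hS hR z.reverse hh
    rw [e] at h2
    have h3 := mul_mem (mul_mem (inv_mem hk) h2) hk
    exact S.Hbar_le_Bbar (by simpa [mul_assoc] using h3)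
  refine ⟨_, hA, _, mul_mem hx hh', ?_⟩
  rw [Sys.nW_cons]
  simp [mul_assoc]

theorem cell_mul (hS : Rules D F) (hR : RootTable D len) :
    ∀ (v u : List (Fin D.rank)), Reduced D (v ++ u) → ∀ {b : G}, b ∈ S.Bbar →
      InCell S (S.nW v * b * S.nW u) (v ++ u)
  | [], u, _, b, hb => by
    rw [S.nW_nil, one_mul]
    exact (inCell_self S u).mul_left S hb
  | i :: v, u, h, b, hb => by
    obtain ⟨hvu, -⟩ := hR.reduced_of_cons h
    obtain ⟨c, hc, c', hc', e⟩ := cell_mul hS hR v u hvu hb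
    have h1 := (step_pos S hS hR i h hc).mul_right S hc'
    convert h1 using 1
    on_goal 2 => rfl
    rw [Sys.nW_cons]
    calc S.nI i * S.nW v * b * S.nW u = S.nI i * (S.nW v * b * S.nW u) := by simp [mul_assoc]
      _ = _ := by rw [e]; simp [mul_assoc]

/-- One step on the left. -/
theorem step (hS : Rules D F) (hR : RootTable D len) (i : Fin D.rank) (w : List (Fin D.rank)) {b : G}
    (hb : b ∈ S.Bbar) : InCell S (S.nI i * b * S.nW w) w ∨ InCell S (S.nI i * b * S.nW w) (i :: w) := by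
  obtain ⟨v, hv, -, hva⟩ := exists_red hS hR w
  obtain ⟨k, hk, e⟩ := S.nW_congr hS hR hva.symm
  have hiv : SameAct D (i :: v) (i :: w) := (SameAct.refl [i]).append hR hva
  rw [e, ← mul_assoc, mul_assoc (S.nI i) b k]
  have hbk : b * k ∈ S.Bbar := mul_mem hb (S.Hbar_le_Bbar hk)
  rcases cons_cases hS hR i hv with h | ⟨z, -, -, hza, hiz, hback⟩
  · exact Or.inr (inCell_congr S hS hR hiv (step_pos S hS hR i h hbk))
  obtain ⟨k', hk', e'⟩ := S.nW_congr hS hR hback.symm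
  rw [e', Sys.nW_cons]
  have hnk : S.nI i * (b * k * k') * S.nI i ∈ S.PJ {(i : ℕ)} :=
    mul_mem (mul_mem (Subgroup.mem_sup_right (Subgroup.subset_closure ⟨i, rfl, rfl⟩))
      (Subgroup.mem_sup_left (mul_mem hbk (S.Hbar_le_Bbar hk'))))
      (Subgroup.mem_sup_right (Subgroup.subset_closure ⟨i, rfl, rfl⟩))
  have hE : S.nI i * (b * k) * (k' * (S.nI i * S.nW z)) = S.nI i * (b * k * k') * S.nI i * S.nW z := by
    simp [mul_assoc]
  rw [hE]
  rcases S.PJ_singleton_mem hS hR i hnk with h | ⟨a, ha, c, hc, ec⟩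
  · exact Or.inr (inCell_congr S hS hR (hza.trans hiv) ((inCell_self S z).mul_left S h))
  · refine Or.inl (inCell_congr S hS hR (hback.trans hva) ?_)
    rw [ec, mul_assoc a, mul_assoc a]
    exact (step_pos S hS hR i hiz hc).mul_left S ha

theorem prod_step (hS : Rules D F) (hR : RootTable D len) {K : List ℕ} :
    ∀ (u : List (Fin D.rank)), InJ K u → ∀ (w : List (Fin D.rank)) {b : G}, b ∈ S.Bbar →
      ∃ u', InJ K u' ∧ InCell S (S.nW u * b * S.nW w) (u' ++ w)
  | [], _, w, b, hb => ⟨[], by simp [InJ], by rw [S.nW_nil, one_mul]; exact (inCell_self S w).mul_left S hb⟩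
  | i :: u, h, w, b, hb => by
    obtain ⟨u', hu', c, hc, c', hc', e⟩ := prod_step hS hR u (fun j hj => h j (List.mem_cons_of_mem _ hj)) w hb
    have e1 : S.nW (i :: u) * b * S.nW w = S.nI i * c * S.nW (u' ++ w) * c' := by
      calc S.nW (i :: u) * b * S.nW w = S.nI i * (S.nW u * b * S.nW w) := by
            rw [Sys.nW_cons]; simp [mul_assoc]
        _ = _ := by rw [e]; simp [mul_assoc]
    rw [e1]
    rcases step S hS hR i (u' ++ w) hc with h1 | h1
    · exact ⟨u', hu', h1.mul_right S hc'⟩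
    · exact ⟨i :: u', fun j hj => (List.mem_cons.1 hj).elim (fun e => e ▸ h i List.mem_cons_self) (hu' j),
        h1.mul_right S hc'⟩

theorem nW_mem_PL {J : List ℕ} : ∀ {u : List (Fin D.rank)}, InJ J u → S.nW u ∈ PL S J
  | [], _ => by rw [S.nW_nil]; exact one_mem _
  | i :: u, h => by
    rw [Sys.nW_cons]
    exact mul_mem (Subgroup.mem_sup_right (Subgroup.subset_closure ⟨i, h i List.mem_cons_self, rfl⟩))
      (nW_mem_PL fun j hj => h j (List.mem_cons_of_mem _ hj))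

theorem Bbar_le_PL (J : List ℕ) : S.Bbar ≤ PL S J := le_sup_left

theorem mem_PL (hS : Rules D F) (hR : RootTable D len) {J : List ℕ} {g : G} (hg : g ∈ PL S J) :
    ∃ u, InJ J u ∧ InCell S g u := by
  let M : G → Prop := fun g => ∃ u, InJ J u ∧ InCell S g u
  have hB : ∀ b ∈ S.Bbar, ∀ z, M z → M (b * z) := fun b hb z ⟨u, hu, h⟩ => ⟨u, hu, h.mul_left S hb⟩
  have hn : ∀ i : Fin D.rank, i.val ∈ J → ∀ z, M z → M (S.nI i * z) := by
    rintro i hi z ⟨u, hu, c, hc, c', hc', rfl⟩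
    rw [← mul_assoc, ← mul_assoc]
    rcases step S hS hR i u hc with h | h
    · exact ⟨u, hu, h.mul_right S hc'⟩
    · exact ⟨i :: u, fun j hj => (List.mem_cons.1 hj).elim (fun e => e ▸ hi) (hu j), h.mul_right S hc'⟩
  have key : ∀ z, M z → M (g * z) ∧ M (g⁻¹ * z) := by
    rw [PL, Sys.PJ, ← Subgroup.closure_eq S.Bbar, ← Subgroup.closure_union] at hg
    refine Subgroup.closure_induction (p := fun g _ => ∀ z, M z → M (g * z) ∧ M (g⁻¹ * z)) ?_ ?_ ?_ ?_ hg
    · rintro x (hx | ⟨i, hi, rfl⟩) z hz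
      · exact ⟨hB x hx z hz, hB _ (inv_mem hx) z hz⟩
      · refine ⟨hn i hi z hz, ?_⟩
        obtain ⟨h, hh, e⟩ := S.nI_inv_mem hS hR i
        rw [e, mul_assoc]
        exact hB _ (S.Hbar_le_Bbar hh) _ (hn i hi z hz)
    · intro z hz
      simpa using hz
    · intro a b _ _ ha hb z hz
      refine ⟨by rw [mul_assoc]; exact (ha _ (hb z hz).1).1, ?_⟩
      rw [mul_inv_rev, mul_assoc]
      exact (hb _ (ha z hz).2).2
    · intro a _ ha z hz
      exact ⟨(ha z hz).2, by simpa using (ha z hz).1⟩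
  have h1 : M 1 := ⟨[], by simp [InJ], by rw [← S.nW_nil]; exact inCell_self S _⟩
  simpa using (key 1 h1).1

/-- Cosets of `P_J` in `G/B` with minimal representatives are separated. -/
theorem minR_inj (hS : Rules D F) (hR : RootTable D len) {J : List ℕ} {w w' : List (Fin D.rank)}
    (hw : MinR D J w) (hw' : MinR D J w') {c c' : G} (hc : c ∈ S.Bbar) (hc' : c' ∈ S.Bbar)
    (h : (c * S.nW w)⁻¹ * (c' * S.nW w') ∈ PL S J) :
    SameAct D w w' ∧ (c * S.nW w)⁻¹ * (c' * S.nW w') ∈ S.Bbar := by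
  obtain ⟨w1, hw1, -, hw1a⟩ := exists_red hS hR w
  obtain ⟨u, hu, b, hb, b', hb', e⟩ := mem_PL S hS hR h
  obtain ⟨u1, hu1, hu1s, hu1a⟩ := exists_red hS hR u
  have hwu : SameAct D (w1 ++ u1) (w ++ u) := hw1a.append hR hu1a
  have hred : Reduced D (w1 ++ u1) := by
    unfold Reduced at hw1 hu1 ⊢
    rw [invCount_append_minR hR (hw1a.symm.minR hR hw) (hu.sublist hu1s), hw1, hu1, List.length_append]
  obtain ⟨k, hk, ek⟩ := S.nW_congr hS hR hw1a.symm
  obtain ⟨k', hk', ek'⟩ := S.nW_congr hS hR hu1a.symm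
  have hcell : InCell S (c' * S.nW w') (w1 ++ u1) := by
    have e2 : c' * S.nW w' = c * k * (S.nW w1 * (b * k') * S.nW u1) * b' := by
      calc c' * S.nW w' = c * S.nW w * ((c * S.nW w)⁻¹ * (c' * S.nW w')) := by simp [mul_assoc]
        _ = _ := by rw [e, ek, ek']; simp [mul_assoc]
    rw [e2]
    exact ((cell_mul S hS hR w1 u1 hred (mul_mem hb (S.Hbar_le_Bbar hk'))).mul_left S
      (mul_mem hc (S.Hbar_le_Bbar hk))).mul_right S hb'
  have hact := (inCell_unique S hS hR ((inCell_self S w').mul_left S hc') hcell).trans hwu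
  obtain ⟨hu0, hww⟩ := minR_unique hS hR hw hw' hu hact
  refine ⟨hww.symm, ?_⟩
  obtain ⟨k0, hk0, e0⟩ := S.nW_congr hS hR (v := u) (w := []) hu0
  rw [e, e0, S.nW_nil, mul_one]
  exact mul_mem (mul_mem hb (S.Hbar_le_Bbar hk0)) hb'

/-- Every element is `b n_w p` with `w` minimal. -/
theorem exists_minR_rep (hS : Rules D F) (hR : RootTable D len) (J : List ℕ) {g : G} (hg : g ∈ S.Gbar) :
    ∃ b ∈ S.Bbar, ∃ w, MinR D J w ∧ ∃ p ∈ PL S J, g = b * S.nW w * p := by
  obtain ⟨b, hb, z, -, v, hv, rfl⟩ := S.mem_NF hS hR hg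
  obtain ⟨w, u, hw, hu, -, -, he⟩ := exists_minR hS hR J z
  obtain ⟨k, hk, ek⟩ := S.nW_congr hS hR he.symm
  refine ⟨b * k, mul_mem hb (S.Hbar_le_Bbar hk), w, hw, S.nW u * v,
    mul_mem (nW_mem_PL S hu) (Bbar_le_PL S J (S.Ubar_le_Bbar (S.US_mono (fun r h => h.1) hv))), ?_⟩
  rw [ek, Sys.nW_append]
  simp [mul_assoc]

/-- An element of `P_K n_w P_J` lies in a cell of the double coset of `w`. -/
theorem drel_of_mem (hS : Rules D F) (hR : RootTable D len) {K J : List ℕ} {w w' : List (Fin D.rank)}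
    (hw' : MinR D J w') {p : G} (hp : p ∈ PL S K) (h : (p * S.nW w)⁻¹ * S.nW w' ∈ PL S J) :
    DRel D K J w w' := by
  obtain ⟨u, hu, b, hb, b', hb', rfl⟩ := mem_PL S hS hR hp
  obtain ⟨u', hu', c, hc, c', hc', e⟩ := prod_step S hS hR u hu w hb'
  obtain ⟨x, v, hx, hv, -, -, hxa⟩ := exists_minR hS hR J (u' ++ w)
  obtain ⟨k, hk, ek⟩ := S.nW_congr hS hR hxa.symm
  have e1 : b * S.nW u * b' * S.nW w = b * c * k * S.nW x * (S.nW v * c') := by
    calc b * S.nW u * b' * S.nW w = b * (S.nW u * b' * S.nW w) := by simp [mul_assoc]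
      _ = _ := by rw [e, ek, Sys.nW_append]; simp [mul_assoc]
  have hp' : S.nW v * c' ∈ PL S J := mul_mem (nW_mem_PL S hv) (Bbar_le_PL S J hc')
  have h2 : (b * c * k * S.nW x)⁻¹ * (1 * S.nW w') ∈ PL S J := by
    have h3 := mul_mem hp' h
    rw [e1, mul_inv_rev, ← mul_assoc, mul_inv_cancel_left] at h3
    simpa using h3
  obtain ⟨hxw, -⟩ := minR_inj S hS hR hx hw' (mul_mem (mul_mem hb hc) (S.Hbar_le_Bbar hk)) (one_mem _) h2
  refine ⟨u', v.reverse, hu', hv.reverse, hxw.symm.trans ?_⟩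
  have h4 := hxa.append hR (SameAct.refl v.reverse)
  rw [List.append_assoc x] at h4
  exact SameAct.trans (by simpa using ((SameAct.refl x).append hR (SameAct.append_reverse hR v)).symm) h4

end Cfsg.Agent.ChevSteinberg
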