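import Cfsg.Agent.ChevSteinberg.Cells
import Cfsg.Agent.Char.PermChar
import Cfsg.Agent.CharInd.Basic
import Cfsg.Agent.UnipGL.Characters

/-!
The Steinberg character of a finite group with a system of root elements.
-/

namespace Cfsg.Agent.ChevSteinberg

open Cfsg.Lie Cfsg.Agent.ChevGrp
open scoped ComplexConjugate

variable {D : ChevalleyDatum} {len : ℕ → ℕ}

/-- The Weyl group as a set of permutations of the roots. -/
abbrev WT (hR : RootTable D len) : Type := {f : Fin D.nroots → Fin D.nroots // ∃ w, f = hR.actF w}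

noncomputable instance wtFintype (hR : RootTable D len) : Fintype (WT hR) := Fintype.ofFinite _

/-- A word for a Weyl group element. -/
noncomputable def rep {hR : RootTable D len} (f : WT hR) : List (Fin D.rank) := f.2.choose

theorem rep_spec {hR : RootTable D len} (f : WT hR) : f.1 = hR.actF (rep f) := f.2.choose_spec

/-- The class of a word. -/
def cls (hR : RootTable D len) (w : List (Fin D.rank)) : WT hR := ⟨hR.actF w, w, rfl⟩

theorem sameAct_rep_cls (hR : RootTable D len) (w : List (Fin D.rank)) : SameAct D (rep (cls hR w)) w :=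
  hR.mem_actF_iff.1 (rep_spec (cls hR w)).symm

theorem WT.ext_rep {hR : RootTable D len} {f g : WT hR} (h : SameAct D (rep f) (rep g)) : f = g :=
  Subtype.ext (by rw [rep_spec f, rep_spec g, hR.mem_actF_iff.2 h])

open scoped Classical in
/-- The fundamental roots kept positive by a word. -/
noncomputable def ascents (D : ChevalleyDatum) (w : List (Fin D.rank)) : Finset ℕ :=
  (Finset.range D.rank).filter fun j => D.IsPosRoot (act D w (D.simple j))

theorem minR_toList_iff {J : Finset ℕ} (hJ : J ⊆ Finset.range D.rank) (w : List (Fin D.rank)) :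
    MinR D J.toList w ↔ J ⊆ ascents D w := by
  classical
  constructor
  · intro h j hj
    exact Finset.mem_filter.2 ⟨hJ hj, h ⟨j, Finset.mem_range.1 (hJ hj)⟩ (Finset.mem_toList.2 hj)⟩
  · exact fun h j hj => (Finset.mem_filter.1 (h (Finset.mem_toList.1 hj))).2

theorem exists_top {F : Type*} [Field F] (hS : Rules D F) (hR : RootTable D len) :
    ∃ f0 : WT hR, (∀ j : Fin D.rank, D.IsNegRoot (act D (rep f0) (D.simple j))) ∧
      ∀ f : WT hR, ascents D (rep f) = ∅ ↔ f = f0 := by
  classical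
  obtain ⟨w, -, hw, -⟩ := hR.exists_longest
  have hneg : ∀ j : Fin D.rank, D.IsNegRoot (act D (rep (cls hR w)) (D.simple j)) := fun j => by
    rw [sameAct_rep_cls hR w _ (hR.simple_lt j j.2)]
    exact hw _ (hR.simple_pos j)
  refine ⟨cls hR w, hneg, fun f => ⟨fun h => ?_, ?_⟩⟩
  · refine WT.ext_rep (longest_unique hS hR (fun j => ?_) hneg)
    refine hR.neg_of_not_pos (hR.act_lt _ (hR.simple_lt j j.2)) fun hp => ?_
    have : j.val ∈ ascents D (rep f) := Finset.mem_filter.2 ⟨Finset.mem_range.2 j.2, hp⟩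
    rw [h] at this
    exact Finset.notMem_empty _ this
  · rintro rfl
    refine Finset.eq_empty_iff_forall_notMem.2 fun j hj => ?_
    obtain ⟨hj, hp⟩ := Finset.mem_filter.1 hj
    exact hR.not_pos_and_neg hp (hneg ⟨j, Finset.mem_range.1 hj⟩)

theorem alternating {F : Type*} [Field F] (hS : Rules D F) (hR : RootTable D len) {f0 : WT hR}
    (htop : ∀ f : WT hR, ascents D (rep f) = ∅ ↔ f = f0) (c : WT hR → ℂ)
    [∀ (J : Finset ℕ) (f : WT hR), Decidable (MinR D J.toList (rep f))] :
    ∑ J ∈ (Finset.range D.rank).powerset,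
      (-1 : ℂ) ^ J.card * ∑ f : WT hR, (if MinR D J.toList (rep f) then c f else 0) = c f0 := by
  classical
  simp only [Finset.mul_sum]
  rw [Finset.sum_comm, Finset.sum_eq_single f0]
  · rw [Finset.sum_eq_single (∅ : Finset ℕ)]
    · rw [if_pos ((minR_toList_iff (Finset.empty_subset _) _).2 (Finset.empty_subset _)), Finset.card_empty,
        pow_zero, one_mul]
    · intro J hJ hne
      rw [if_neg, mul_zero]
      rw [minR_toList_iff (Finset.mem_powerset.1 hJ), (htop f0).2 rfl]
      exact fun h => hne (Finset.subset_empty.1 h)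
    · intro h
      exact absurd (Finset.empty_mem_powerset _) h
  · intro f _ hne
    have hA : ascents D (rep f) ≠ ∅ := fun h => hne ((htop f).1 h)
    have hsub : ascents D (rep f) ⊆ Finset.range D.rank := Finset.filter_subset _ _
    rw [← Finset.sum_subset (Finset.powerset_mono.2 hsub) (fun J hJ hnot => by
      rw [if_neg, mul_zero]
      rw [minR_toList_iff (Finset.mem_powerset.1 hJ)]
      exact fun h => hnot (Finset.mem_powerset.2 h))]
    rw [Finset.sum_congr rfl fun J hJ => by
      rw [if_pos ((minR_toList_iff ((Finset.mem_powerset.1 hJ).trans hsub) _).2 (Finset.mem_powerset.1 hJ))],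
      ← Finset.sum_mul]
    have h := congrArg (fun z : ℤ => (z : ℂ)) (Finset.sum_powerset_neg_one_pow_card (x := ascents D (rep f)))
    push_cast [if_neg hA] at h
    rw [h, zero_mul]
  · exact fun h => absurd (Finset.mem_univ _) h

variable {F : Type*} [Field F] {G : Type*} [Group G] (S : Sys D F G)

/-- The orbit of `B` on `G/B` through `n_w`. -/
def cellSet (w : List (Fin D.rank)) : Set (G ⧸ S.Bbar) :=
  {x | ∃ b ∈ S.Bbar, x = QuotientGroup.mk (b * S.nW w)}

/-- fixed cosets in a cell -/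
noncomputable def fixCount (w : List (Fin D.rank)) (b : G) : ℕ :=
  Nat.card {x : G ⧸ S.Bbar // x ∈ cellSet S w ∧ b • x = x}

theorem card_fixed_sum {ι X Y : Type*} [Fintype ι] [Finite X] (P : ι → Prop) [DecidablePred P]
    (C : ι → Set X) (pr : X → Y) (σ : X → X) (τ : Y → Y) (hcomm : ∀ x, pr (σ x) = τ (pr x))
    (hinj : ∀ i j, P i → P j → ∀ x ∈ C i, ∀ y ∈ C j, pr x = pr y → i = j ∧ x = y)
    (hsurj : ∀ y, ∃ i, P i ∧ ∃ x ∈ C i, pr x = y) (hstab : ∀ i, ∀ x ∈ C i, σ x ∈ C i) :
    Nat.card {y : Y // τ y = y} = ∑ i : ι, if P i then Nat.card {x : X // x ∈ C i ∧ σ x = x} else 0 := by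
  classical
  let φ : (Σ i : {i : ι // P i}, {x : X // x ∈ C i.1 ∧ σ x = x}) → {y : Y // τ y = y} := fun q =>
    ⟨pr q.2.1, by rw [← hcomm, q.2.2.2]⟩
  have hφ : Function.Bijective φ := by
    constructor
    · rintro ⟨⟨i, hi⟩, x, hx, hxs⟩ ⟨⟨j, hj⟩, y, hy, hys⟩ h
      obtain ⟨rfl, rfl⟩ := hinj i j hi hj x hx y hy (congrArg Subtype.val h)
      rfl
    · rintro ⟨y, hy⟩
      obtain ⟨i, hi, x, hx, rfl⟩ := hsurj y
      have hfix : σ x = x := (hinj i i hi hi _ (hstab i x hx) x hx (by rw [hcomm, hy])).2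
      exact ⟨⟨⟨i, hi⟩, x, hx, hfix⟩, rfl⟩
  rw [← Nat.card_eq_of_bijective φ hφ, Nat.card_sigma, ← Finset.sum_filter]
  exact (Finset.sum_subtype (Finset.univ.filter P) (fun i => by simp)
    (fun i => Nat.card {x : X // x ∈ C i ∧ σ x = x})).symm

theorem cell_smul {b : G} (hb : b ∈ S.Bbar) {w : List (Fin D.rank)} {x : G ⧸ S.Bbar}
    (hx : x ∈ cellSet S w) : b • x ∈ cellSet S w := by
  obtain ⟨c, hc, e⟩ := hx
  exact ⟨b * c, mul_mem hb hc, by rw [e, MulAction.Quotient.smul_mk, smul_eq_mul, mul_assoc]⟩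

/-- the projection to the cosets of `P_J` -/
def projJ (J : List ℕ) : G ⧸ S.Bbar → G ⧸ PL S J := Subgroup.quotientMapOfLE (Bbar_le_PL S J)

theorem projJ_mk (J : List ℕ) (g : G) :
    projJ S J (QuotientGroup.mk g) = QuotientGroup.mk g := rfl

theorem projJ_smul (J : List ℕ) (b : G) (x : G ⧸ S.Bbar) : projJ S J (b • x) = b • projJ S J x := by
  induction x using QuotientGroup.induction_on with
  | _ g => rw [MulAction.Quotient.smul_mk, projJ_mk, projJ_mk, MulAction.Quotient.smul_mk]

theorem projJ_inj (hS : Rules D F) (hR : RootTable D len) {J : List ℕ} {f f' : WT hR}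
    (hf : MinR D J (rep f)) (hf' : MinR D J (rep f')) {x x' : G ⧸ S.Bbar}
    (hx : x ∈ cellSet S (rep f)) (hx' : x' ∈ cellSet S (rep f')) (h : projJ S J x = projJ S J x') :
    f = f' ∧ x = x' := by
  obtain ⟨c, hc, rfl⟩ := hx
  obtain ⟨c', hc', rfl⟩ := hx'
  rw [projJ_mk, projJ_mk, QuotientGroup.eq] at h
  obtain ⟨h1, h2⟩ := minR_inj S hS hR hf hf' hc hc' h
  exact ⟨WT.ext_rep h1, QuotientGroup.eq.2 h2⟩

theorem projJ_surj (hS : Rules D F) (hR : RootTable D len) (hG : S.Gbar = ⊤) (J : List ℕ)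
    (y : G ⧸ PL S J) : ∃ f : WT hR, MinR D J (rep f) ∧ ∃ x ∈ cellSet S (rep f), projJ S J x = y := by
  obtain ⟨g, rfl⟩ := QuotientGroup.mk_surjective y
  obtain ⟨c, hc, w, hw, p, hp, rfl⟩ := exists_minR_rep S hS hR J (g := g) (hG ▸ Subgroup.mem_top g)
  obtain ⟨k, hk, ek⟩ := S.nW_congr hS hR (sameAct_rep_cls hR w).symm
  refine ⟨cls hR w, (sameAct_rep_cls hR w).symm.minR hR hw, QuotientGroup.mk (c * S.nW w),
    ⟨c * k, mul_mem hc (S.Hbar_le_Bbar hk), by rw [ek, mul_assoc]⟩, ?_⟩
  rw [projJ_mk]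
  exact (QuotientGroup.mk_mul_of_mem _ hp).symm

theorem fix_decomp [Finite G] (hS : Rules D F) (hR : RootTable D len) (hG : S.Gbar = ⊤) (J : List ℕ)
    {b : G} (hb : b ∈ S.Bbar) [DecidablePred fun f : WT hR => MinR D J (rep f)] :
    (fixedPointCharacter (PL S J) b : ℂ) =
      ∑ f : WT hR, (if MinR D J (rep f) then (fixCount S (rep f) b : ℂ) else 0) := by
  have h := card_fixed_sum (fun f : WT hR => MinR D J (rep f)) (fun f => cellSet S (rep f))
    (projJ S J) (fun x => b • x) (fun y => b • y) (projJ_smul S J b)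
    (fun i j hi hj x hx y hy e => projJ_inj S hS hR hi hj hx hy e) (projJ_surj S hS hR hG J)
    (fun i x hx => cell_smul S hb hx)
  refine (congrArg (fun n : ℕ => (n : ℂ)) h).trans ?_
  rw [Nat.cast_sum]
  refine Finset.sum_congr rfl fun f _ => ?_
  rw [apply_ite (Nat.cast (R := ℂ)), Nat.cast_zero]
  rfl

/-- The alternating sum of permutation characters. -/
noncomputable def stein : G → ℂ :=
  fun g => ∑ J ∈ (Finset.range D.rank).powerset, (-1 : ℂ) ^ J.card * fixedPointCharacter (PL S J.toList) g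

theorem stein_Bbar [Finite G] (hS : Rules D F) (hR : RootTable D len) (hG : S.Gbar = ⊤) (b : S.Bbar) :
    stein S b = fixedPointCharacter (S.Hbar.subgroupOf S.Bbar) b := by
  classical
  obtain ⟨f0, hneg, htop⟩ := exists_top hS hR
  simp only [stein, fix_decomp S hS hR hG _ b.2]
  rw [alternating hS hR htop]
  set n := S.nW (rep f0)
  have hstab : ∀ a : G, (a ∈ S.Bbar ∧ n⁻¹ * a * n ∈ S.Bbar) ↔ a ∈ S.Hbar := by
    intro a
    constructor
    · rintro ⟨ha, hc⟩
      obtain ⟨u, hu, h, hh, e⟩ := (S.mem_Bbar hS hR).1 hc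
      have hinv : invSet D (rep f0) = posSet D :=
        Set.ext fun r => ⟨fun h => h.1, fun h => ⟨h, all_neg hR hneg h⟩⟩
      have hV : n * u * n⁻¹ ∈ S.Vbar := S.nW_conj_neg hS hR _ (by rw [hinv]; exact hu)
      have hH : n * h * n⁻¹ ∈ S.Hbar := S.nW_conj_Hbar hS hR _ hh
      have ea : a = n * u * n⁻¹ * (n * h * n⁻¹) := by
        rw [show a = n * (n⁻¹ * a * n) * n⁻¹ by simp [mul_assoc], e]; simp [mul_assoc]
      have h1 : n * u * n⁻¹ ∈ S.Vbar ⊓ S.Bbar := by
        refine Subgroup.mem_inf.2 ⟨hV, ?_⟩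
        have := mul_mem ha (S.Hbar_le_Bbar (inv_mem hH))
        rwa [ea, mul_inv_cancel_right] at this
      rw [S.Vbar_inf_Bbar hS hR, Subgroup.mem_bot] at h1
      rw [ea, h1, one_mul]
      exact hH
    · intro ha
      refine ⟨S.Hbar_le_Bbar ha, S.Hbar_le_Bbar ?_⟩
      have := Subgroup.mem_normalizer_iff.1 (S.Nbar_le_normalizer hS hR (inv_mem (S.nW_mem_Nbar (rep f0)))) a
      simpa using this.1 ha
  let φ : S.Bbar ⧸ S.Hbar.subgroupOf S.Bbar → G ⧸ S.Bbar := fun x => QuotientGroup.mk ((x.out : G) * n)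
  have hφ : ∀ c : S.Bbar, φ (QuotientGroup.mk c) = QuotientGroup.mk ((c : G) * n) := by
    intro c
    obtain ⟨⟨h, hh⟩, e⟩ := QuotientGroup.mk_out_eq_mul (S.Hbar.subgroupOf S.Bbar) c
    simp only [φ, e, Subgroup.coe_mul]
    rw [QuotientGroup.eq]
    have h2 := inv_mem ((hstab (h : G)).2 (Subgroup.mem_subgroupOf.1 hh)).2
    simpa [mul_assoc] using h2
  have hinj : Function.Injective φ := by
    intro x y
    induction x using QuotientGroup.induction_on with
    | _ c =>
      induction y using QuotientGroup.induction_on with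
      | _ d =>
        intro h
        rw [hφ, hφ, QuotientGroup.eq] at h
        rw [QuotientGroup.eq, Subgroup.mem_subgroupOf]
        refine (hstab _).1 ⟨(c⁻¹ * d).2, ?_⟩
        simpa [mul_assoc] using h
  have hequiv : ∀ x, φ (b • x) = (b : G) • φ x := by
    intro x
    induction x using QuotientGroup.induction_on with
    | _ c =>
      rw [MulAction.Quotient.smul_mk, hφ, hφ, MulAction.Quotient.smul_mk, smul_eq_mul, smul_eq_mul]
      simp [mul_assoc]
  rw [fixedPointCharacter, Nat.cast_inj]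
  symm
  refine Nat.card_eq_of_bijective (fun x => ⟨φ x.1, ?_, ?_⟩) ⟨?_, ?_⟩
  · obtain ⟨c, hc⟩ := QuotientGroup.mk_surjective x.1
    exact ⟨c, c.2, by rw [← hc, hφ]⟩
  · rw [← hequiv, show b • x.1 = x.1 from x.2]
  · intro x y h
    exact Subtype.ext (hinj (congrArg Subtype.val h))
  · rintro ⟨_, ⟨c, hc, rfl⟩, hfix⟩
    refine ⟨⟨QuotientGroup.mk ⟨c, hc⟩, hinj ?_⟩, Subtype.ext (hφ ⟨c, hc⟩)⟩
    rw [hequiv, hφ]
    exact hfix

theorem stein_one [Fintype F] [Finite G] (hS : Rules D F) (hR : RootTable D len) (hG : S.Gbar = ⊤) :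
    stein S 1 = (Fintype.card F : ℂ) ^ (D.nroots / 2) := by
  have h := stein_Bbar S hS hR hG 1
  rw [Subgroup.coe_one] at h
  rw [h, UnipGL.fixedPointCharacter_one]
  have e : Nat.card S.Ubar = Nat.card (S.Bbar ⧸ S.Hbar.subgroupOf S.Bbar) := by
    refine Nat.card_eq_of_bijective
      (fun u => QuotientGroup.mk (⟨u.1, S.Ubar_le_Bbar u.2⟩ : S.Bbar)) ⟨fun u v e => ?_, fun x => ?_⟩
    · rw [QuotientGroup.eq, Subgroup.mem_subgroupOf] at e
      have h1 : (u : G)⁻¹ * v ∈ S.Ubar ⊓ S.Hbar :=
        Subgroup.mem_inf.2 ⟨mul_mem (inv_mem u.2) v.2, e⟩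
      rw [S.Ubar_inf_Hbar hS hR, Subgroup.mem_bot, inv_mul_eq_one] at h1
      exact Subtype.ext h1
    · obtain ⟨c, rfl⟩ := QuotientGroup.mk_surjective x
      obtain ⟨u, hu, h, hh, e⟩ := (S.mem_Bbar hS hR).1 c.2
      refine ⟨⟨u, hu⟩, QuotientGroup.eq.2 (Subgroup.mem_subgroupOf.2 ?_)⟩
      simpa [e] using hh
  rw [← e, Sys.Ubar, S.card_US hR hR.posSet_closed, Nat.card_eq_fintype_card (α := F), Nat.cast_pow]
  congr 1
  have := card_posSet hS
  omega

/-- The average of the Steinberg character over a parabolic subgroup. -/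
theorem avg_PL [Fintype G] (hS : Rules D F) (hR : RootTable D len) (hG : S.Gbar = ⊤)
    {K : Finset ℕ} (hK : K ⊆ Finset.range D.rank) [Fintype (PL S K.toList)] :
    classInner (fun p : PL S K.toList => stein S p) (fun _ => 1) = if K = ∅ then 1 else 0 := by
  classical
  obtain ⟨f0, hneg, htop⟩ := exists_top hS hR
  have horb : ∀ J : Finset ℕ, classInner (fun p : PL S K.toList => fixedPointCharacter (PL S J.toList) (p : G))
      (fun _ => 1) =
        ∑ f : WT hR, (if MinR D J.toList (rep f) then (if MinL D K.toList (rep f) then (1 : ℂ) else 0) else 0) := by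
    intro J
    rw [show (fun p : PL S K.toList => fixedPointCharacter (PL S J.toList) (p : G)) =
      Char.permChar (G := PL S K.toList) (G ⧸ PL S J.toList) from rfl, Char.classInner_permChar_one]
    let φ : {f : WT hR // MinR D J.toList (rep f) ∧ MinL D K.toList (rep f)} →
        Quotient (MulAction.orbitRel (PL S K.toList) (G ⧸ PL S J.toList)) :=
      fun f => Quotient.mk _ (QuotientGroup.mk (S.nW (rep f.1)))
    have hφ : Function.Bijective φ := by
      constructor
      · rintro ⟨f, hf1, hf2⟩ ⟨f', hf1', hf2'⟩ h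
        obtain ⟨p, hp⟩ := Quotient.exact h
        change (p : G) • (QuotientGroup.mk (S.nW (rep f')) : G ⧸ PL S J.toList) = QuotientGroup.mk (S.nW (rep f)) at hp
        rw [MulAction.Quotient.smul_mk, smul_eq_mul, QuotientGroup.eq] at hp
        exact Subtype.ext (WT.ext_rep (dmin_eq hS hR (drel_of_mem S hS hR hf1 p.2 hp) hf2' hf1' hf2 hf1)).symm
      · intro y
        induction y using Quotient.inductionOn with | _ y =>
        obtain ⟨g, rfl⟩ := QuotientGroup.mk_surjective y
        obtain ⟨c, hc, w, -, p, hp, rfl⟩ := exists_minR_rep S hS hR J.toList (g := g) (hG ▸ Subgroup.mem_top g)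
        obtain ⟨x, -, hxL, hxR, ⟨u, v, hu, hv, hxa⟩, -⟩ := exists_dmin hS hR K.toList J.toList w
        have hrx := sameAct_rep_cls hR x
        refine ⟨⟨cls hR x, hrx.symm.minR hR hxR, hrx.symm.minL hR hxL⟩, Quotient.sound ?_⟩
        obtain ⟨k, hk, ek⟩ := S.nW_congr hS hR (hrx.trans hxa)
        refine ⟨⟨k * S.nW u * c⁻¹, mul_mem (mul_mem (Bbar_le_PL S _ (S.Hbar_le_Bbar hk)) (nW_mem_PL S hu))
          (Bbar_le_PL S _ (inv_mem hc))⟩, ?_⟩
        change (k * S.nW u * c⁻¹) • (QuotientGroup.mk (c * S.nW w * p) : G ⧸ PL S J.toList) =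
          QuotientGroup.mk (S.nW (rep (cls hR x)))
        rw [MulAction.Quotient.smul_mk, smul_eq_mul, ek, Sys.nW_append, Sys.nW_append, QuotientGroup.eq]
        have := mul_mem (inv_mem hp) (nW_mem_PL S hv)
        simpa [mul_assoc] using this
    rw [← Nat.card_eq_of_bijective φ hφ, Nat.card_eq_fintype_card, Fintype.card_subtype, ← Finset.sum_boole]
    exact Finset.sum_congr rfl fun f _ => ite_and _ _ _ _
  have hlin : classInner (fun p : PL S K.toList => stein S p) (fun _ => 1) =
      ∑ J ∈ (Finset.range D.rank).powerset, (-1 : ℂ) ^ J.card *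
        classInner (fun p : PL S K.toList => fixedPointCharacter (PL S J.toList) (p : G)) (fun _ => 1) := by
    simp only [classInner, stein, map_one, mul_one, Finset.mul_sum]
    rw [Finset.sum_comm]
    exact Finset.sum_congr rfl fun J _ => Finset.sum_congr rfl fun p _ => by ring
  rw [hlin, Finset.sum_congr rfl fun J _ => by rw [horb J], alternating hS hR htop]
  by_cases h : K = ∅
  · subst h
    rw [if_pos rfl, if_pos]
    intro j hj
    simp at hj
  · rw [if_neg h, if_neg]
    intro hL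
    obtain ⟨k, hk⟩ := Finset.nonempty_iff_ne_empty.2 h
    have h1 := hL ⟨k, Finset.mem_range.1 (hK hk)⟩ (Finset.mem_toList.2 hk)
    have h2 := all_neg hR hneg h1
    rw [hR.act_act_reverse _ (hR.simple_lt k (Finset.mem_range.1 (hK hk)))] at h2
    exact hR.not_pos_and_neg (hR.simple_pos ⟨k, Finset.mem_range.1 (hK hk)⟩) h2

theorem stein_conj [Finite G] (g : G) : conj (stein S g) = stein S g := by
  simp only [stein, map_sum, map_mul, map_pow, map_neg, map_one, UnipGL.conj_fixedPointCharacter]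

theorem stein_generalized [Fintype G] : IsGeneralizedCharacter G (stein S) := by
  have e : stein S = ∑ J ∈ (Finset.range D.rank).powerset,
      ((-1 : ℤ) ^ J.card) • fixedPointCharacter (PL S J.toList) := by
    funext g
    simp only [stein, Finset.sum_apply, Pi.smul_apply, zsmul_eq_mul]
    push_cast
    rfl
  rw [e]
  exact Char.isGeneralizedCharacter_sum _ fun J _ => Char.isGeneralizedCharacter_zsmul
    (Char.isGeneralizedCharacter_of_isCharacter (UnipGL.isCharacter_fixedPointCharacter _)) _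

theorem stein_norm [Fintype G] (hS : Rules D F) (hR : RootTable D len) (hG : S.Gbar = ⊤) :
    classInner (stein S) (stein S) = 1 := by
  classical
  have hcl := Char.isGeneralizedCharacter_isClassFunction (stein_generalized S)
  have e : classInner (stein S) (stein S) = ∑ K ∈ (Finset.range D.rank).powerset,
      (-1 : ℂ) ^ K.card * classInner (fixedPointCharacter (PL S K.toList)) (stein S) := by
    simp only [classInner, Finset.mul_sum]
    rw [Finset.sum_comm]
    refine Finset.sum_congr rfl fun g _ => ?_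
    nth_rewrite 1 [show stein S g = ∑ K ∈ (Finset.range D.rank).powerset,
      (-1 : ℂ) ^ K.card * fixedPointCharacter (PL S K.toList) g from rfl]
    rw [Finset.sum_mul, Finset.mul_sum]
    exact Finset.sum_congr rfl fun K _ => by ring
  rw [e, Finset.sum_eq_single (∅ : Finset ℕ)]
  · rw [UnipGL.fixedPointCharacter_eq_indFun, CharInd.classInner_indFun_left _ _ hcl, Finset.card_empty,
      pow_zero, one_mul]
    have h := congrArg conj (avg_PL S hS hR hG (K := ∅) (Finset.empty_subset _))
    rw [CharInd.classInner_swap, if_pos rfl, map_one] at h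
    exact h
  · intro K hK hne
    rw [UnipGL.fixedPointCharacter_eq_indFun, CharInd.classInner_indFun_left _ _ hcl]
    have h := congrArg conj (avg_PL S hS hR hG (K := K) (Finset.mem_powerset.1 hK))
    rw [CharInd.classInner_swap, if_neg hne, map_zero] at h
    rw [h, mul_zero]
  · exact fun h => absurd (Finset.empty_mem_powerset _) h

theorem stein_irr [Fintype F] [Fintype G] (hS : Rules D F) (hR : RootTable D len) (hG : S.Gbar = ⊤) :
    IsIrrCharacter G (stein S) := by
  refine (Char.generalized_norm_one (stein_generalized S) (stein_norm S hS hR hG)).resolve_right fun h => ?_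
  obtain ⟨n, hn, hn'⟩ := Char.irr_one_pos h
  rw [Pi.neg_apply, stein_one S hS hR hG] at hn'
  have h2 : ((Fintype.card F ^ (D.nroots / 2) + n : ℕ) : ℂ) = 0 := by
    push_cast; rw [← hn']; ring
  have := Nat.cast_eq_zero.1 h2
  omega

end Cfsg.Agent.ChevSteinberg
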