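import Cfsg.Agent.ChevSteinberg.GrpSys
import Cfsg.Agent.ChevSteinberg.Character
import Cfsg.Agent.ChevSteinberg.SylowU
import Cfsg.Agent.Char.DefectZero

/-!
The Steinberg character of a Chevalley group.
-/

namespace Cfsg.Agent.ChevSteinberg

open Cfsg.Lie Cfsg.Agent.ChevGrp
open scoped MatrixGroups

variable {D : ChevalleyDatum} {F : Type*} [Field F] [Fintype F] {len : ℕ → ℕ}

theorem steinbergCharacter_eq (hS : Rules D F) (hR : RootTable D len) :
    D.steinbergCharacter F = stein (grpSys hS) := by
  funext g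
  simp only [ChevalleyDatum.steinbergCharacter, stein, parabolicIn_eq hS hR]

theorem steinberg_one (hS : Rules D F) :
    D.steinbergCharacter F 1 = (Fintype.card F : ℂ) ^ (D.nroots / 2) := by
  classical
  obtain ⟨len, hR⟩ := hS.root
  rw [steinbergCharacter_eq hS hR]
  exact stein_one _ hS hR (Gbar_grpSys hS)

theorem steinberg_irr (hS : Rules D F) : IsIrrCharacter ↥(D.group F) (D.steinbergCharacter F) := by
  classical
  obtain ⟨len, hR⟩ := hS.root
  haveI := Fintype.ofFinite ↥(D.group F)
  rw [steinbergCharacter_eq hS hR]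
  exact stein_irr _ hS hR (Gbar_grpSys hS)

theorem steinberg_borel (hS : Rules D F) (b : ↥((D.borelSubgroup F).subgroupOf (D.group F))) :
    D.steinbergCharacter F ((((D.borelSubgroup F).subgroupOf (D.group F)).subtype) b) =
      Cfsg.fixedPointCharacter (((D.diagonalSubgroup F).subgroupOf (D.group F)).subgroupOf
        ((D.borelSubgroup F).subgroupOf (D.group F))) b := by
  classical
  obtain ⟨len, hR⟩ := hS.root
  have key : ∀ (B H : Subgroup ↥(D.group F)), B = (grpSys hS).Bbar → H = (grpSys hS).Hbar → ∀ c : B,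
      D.steinbergCharacter F (B.subtype c) = fixedPointCharacter (H.subgroupOf B) c := by
    rintro B H rfl rfl c
    rw [steinbergCharacter_eq hS hR]
    exact stein_Bbar _ hS hR (Gbar_grpSys hS) c
  exact key _ _ (borel_subgroupOf_eq hS hR) (diagonal_subgroupOf_eq hS hR) b

theorem steinberg_vanish (hS : Rules D F) (p : ℕ) [hp : Fact p.Prime] [CharP F p] (g : ↥(D.group F))
    (hg : p ∣ orderOf g) : D.steinbergCharacter F g = 0 := by
  classical
  obtain ⟨h1, -⟩ := not_dvd_index_posUnipotent hS p
  have hle : D.posUnipotent F ≤ D.group F := le_trans le_sup_left (thm_S1043 hS).1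
  have hidx := Subgroup.card_mul_index ((D.posUnipotent F).subgroupOf (D.group F))
  rw [Nat.card_congr (Subgroup.subgroupOfEquivOfLe hle).toEquiv, thm_S1027 hS] at hidx
  exact Char.irr_defect_zero_vanish (steinberg_irr hS) hp.out
    (by rw [steinberg_one hS, Nat.cast_pow]) hidx.symm h1 g hg

end Cfsg.Agent.ChevSteinberg
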